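-- Team project SUG (S2412), block [Q2]: package [Q2-GENS] (helper68).
import Mathlib
import Cfsg.Agent.Lib.Helper6.SUG.Q2Defs
import Cfsg.Agent.Lib.Helper13.UTransvComm

set_option autoImplicit false

namespace Cfsg.Agent.Lib.Helper68.SUG

open Matrix Cfsg.Agent.Lib.Helper60.SUG Cfsg.Agent.Lib.Helper6.SUG

universe u

section q2gens

variable {F : Type u} [Field F] [Fintype F] {n : ℕ}

theorem q2g_two (hF : Fintype.card F = 2 ^ 2) : (2 : F) = 0 := by
  have h : ((Fintype.card F : ℕ) : F) = 0 := FiniteField.cast_card_eq_zero F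
  rw [hF] at h
  push_cast at h
  have h' : (2 : F) * 2 = 0 := by linear_combination h
  exact mul_self_eq_zero.mp h'

theorem q2g_herm_w (hF : Fintype.card F = 2 ^ 2) (hn : 4 ≤ n) :
    Cfsg.hermForm n F 2 (wVec n F) (wVec n F) = 0 := by
  obtain ⟨m, rfl⟩ := Nat.exists_eq_add_of_le hn
  have h2 := q2g_two hF
  have h4 : (4 : F) = 0 := by linear_combination 2 * h2
  unfold Cfsg.hermForm wVec
  rw [Fin.sum_univ_add]
  have e1 : ∀ i : Fin 4, ((Fin.castAdd m i : Fin (4 + m)) : ℕ) < 4 := fun i => by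
    rw [Fin.val_castAdd]; exact i.isLt
  have e2 : ∀ j : Fin m, ¬ ((Fin.natAdd 4 j : Fin (4 + m)) : ℕ) < 4 := fun j => by
    rw [Fin.val_natAdd]; omega
  simp only [e1, e2, if_true, if_false]
  simp [h4]

theorem q2g_tw_comm_diag (z : Fin n → F) (ζ : F) (hz : ∀ k : Fin n, (k : ℕ) < 4 → z k = ζ) :
    Cfsg.unitaryTransvection n 2 (wVec n F) 1 * Matrix.diagonal z =
      Matrix.diagonal z * Cfsg.unitaryTransvection n 2 (wVec n F) 1 := by
  ext i j
  rw [Matrix.mul_diagonal, Matrix.diagonal_mul]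
  unfold Cfsg.unitaryTransvection
  simp only [Matrix.add_apply, Matrix.smul_apply, Matrix.vecMulVec_apply, smul_eq_mul, one_mul]
  by_cases hij : i = j
  · subst hij; ring
  · rw [Matrix.one_apply_ne hij]
    unfold wVec
    by_cases hi : (i : ℕ) < 4
    · by_cases hj : (j : ℕ) < 4
      · rw [hz i hi, hz j hj]; ring
      · simp [hj]
    · simp [hi]

theorem q2g_core (hF : Fintype.card F = 2 ^ 2) (hn : 4 ≤ n) (t d : ↥(Cfsg.SU n F 2))
    (ht : IsTw t) (z : Fin n → F) (hd : IsDiag d z) (ζ : F)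
    (hz : ∀ k : Fin n, (k : ℕ) < 4 → z k = ζ) (hz3 : ∀ i, z i ^ 3 = 1) :
    (t * d) ^ 3 = t ∧ (t * d) ^ 4 = d := by
  have h2 := q2g_two hF
  have hw := q2g_herm_w (n := n) hF hn
  have hcomm : Commute t d := by
    apply Cfsg.Agent.Lib.Helper13.su_ext
    show mat t * mat d = mat d * mat t
    rw [ht, hd]
    exact q2g_tw_comm_diag z ζ hz
  have ht2 : t ^ 2 = 1 := by
    rw [pow_two]
    apply Cfsg.Agent.Lib.Helper13.su_ext
    show mat t * mat t = 1
    rw [ht, Cfsg.Agent.Lib.Helper13.utransv_mul _ _ _ hw]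
    have h11 : (1 : F) + 1 = 0 := by linear_combination h2
    rw [h11]
    unfold Cfsg.unitaryTransvection
    simp
  have hd3 : d ^ 3 = 1 := by
    have e : d ^ 3 = d * d * d := by rw [pow_succ, pow_succ, pow_one]
    rw [e]
    apply Cfsg.Agent.Lib.Helper13.su_ext
    show mat d * mat d * mat d = 1
    rw [hd, Matrix.diagonal_mul_diagonal, Matrix.diagonal_mul_diagonal, ← Matrix.diagonal_one]
    congr 1
    funext i
    rw [← hz3 i]
    ring
  constructor
  · rw [hcomm.mul_pow, hd3, mul_one, pow_succ, ht2, one_mul]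
  · rw [hcomm.mul_pow, show t ^ 4 = (t ^ 2) ^ 2 by rw [← pow_mul], ht2, one_pow, one_mul,
      pow_succ, hd3, one_mul]

theorem q2g_rot_val (i : Fin n) (h : (i : ℕ) + 1 < n) : (finRotate n i : ℕ) = i + 1 := by
  obtain ⟨m, rfl⟩ : ∃ m, n = m + 1 := ⟨n - 1, by omega⟩
  apply coe_finRotate_of_ne_last
  intro h'
  rw [h'] at h
  simp at h

theorem q2g_pair_pow (ω : F) (hω3 : ω ^ 3 = 1) (i j k : Fin n) : pairVec ω i j k ^ 3 = 1 := by
  unfold pairVec
  split_ifs
  · exact hω3
  · rw [← pow_mul, mul_comm, pow_mul, hω3, one_pow]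
  · exact one_pow 3

theorem q2g_pair_prod (ω : F) (hω3 : ω ^ 3 = 1) (i j : Fin n) (hij : i ≠ j) :
    ∏ k, pairVec ω i j k = 1 := by
  have e : ∀ k, pairVec ω i j k = (if k = i then ω else 1) * (if k = j then ω ^ 2 else 1) := by
    intro k
    unfold pairVec
    by_cases h1 : k = i
    · have h2 : k ≠ j := by rw [h1]; exact hij
      simp [h1, hij]
    · simp [h1]
  simp only [e]
  rw [Finset.prod_mul_distrib, Finset.prod_ite_eq', Finset.prod_ite_eq']
  simp only [Finset.mem_univ, if_true]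
  rw [← hω3]; ring

theorem q2g_cyc_diag (c : ↥(Cfsg.SU n F 2)) (hc : IsCyc c) (z z' : Fin n → F)
    (h : ∀ i, z' (finRotate n i) = z i) :
    mat c * Matrix.diagonal z = Matrix.diagonal z' * mat c := by
  rw [Matrix.ext_iff_mulVec]
  intro v
  rw [← Matrix.mulVec_mulVec, ← Matrix.mulVec_mulVec]
  funext k
  obtain ⟨i, rfl⟩ := (finRotate n).surjective k
  rw [hc _ i, Matrix.mulVec_diagonal, Matrix.mulVec_diagonal, hc v i, h i]

end q2gens

theorem pkgQ2Gens : PkgQ2Gens.{u} := by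
  intro hOm hTw hCyc hDiag F _ _ hF n hn
  obtain ⟨ω, hω1, hω3⟩ := hOm hF
  obtain ⟨t, ht⟩ := hTw hF n (by omega)
  obtain ⟨c, hc⟩ := hCyc hF n
  by_cases h6 : 6 ≤ n
  · -- `n ≥ 6`: `d` is the pair element at `(4, 5)`
    let i4 : Fin n := ⟨4, by omega⟩
    have hr : (finRotate n i4 : ℕ) = 5 := q2g_rot_val i4 (by show 4 + 1 < n; omega)
    have hne : i4 ≠ finRotate n i4 := by
      intro h
      have := congrArg (fun x : Fin n => (x : ℕ)) h
      simp only [hr] at this
      exact absurd this (by show (4 : ℕ) ≠ 5; omega)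
    obtain ⟨d, hd⟩ := hDiag hF n (pairVec ω i4 (finRotate n i4))
      (fun k => q2g_pair_pow ω hω3 _ _ k) (q2g_pair_prod ω hω3 _ _ hne)
    have hz : ∀ k : Fin n, (k : ℕ) < 4 → pairVec ω i4 (finRotate n i4) k = 1 := by
      intro k hk
      unfold pairVec
      have h1 : k ≠ i4 := by
        intro h; rw [h] at hk; exact absurd hk (by show ¬ (4 : ℕ) < 4; omega)
      have h2 : k ≠ finRotate n i4 := by
        intro h; rw [h, hr] at hk; omega
      rw [if_neg h1, if_neg h2]
    obtain ⟨e3, e4⟩ := q2g_core hF (by omega) t d ht _ hd 1 hz (fun k => q2g_pair_pow ω hω3 _ _ k)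
    refine ⟨t * d, c, ω, fun K ha hb => ?_⟩
    have htK : t ∈ K := by rw [← e3]; exact K.pow_mem ha 3
    have hdK : d ∈ K := by rw [← e4]; exact K.pow_mem ha 4
    exact ⟨hω1, hω3, ⟨t, htK, ht⟩, ⟨c, hb, hc⟩, ⟨i4, d, hdK, hd⟩⟩
  · -- `n = 5`
    obtain rfl : n = 5 := by omega
    have hω4 : ω ^ 4 = ω := by linear_combination ω * hω3
    have r4 : finRotate 5 (4 : Fin 5) = 0 := by decide
    have r0 : ∀ i : Fin 5, finRotate 5 i = 0 ↔ i = 4 := by decide
    have l4 : ∀ i : Fin 5, (i : ℕ) < 4 ↔ i ≠ 4 := by decide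
    have ne40 : (4 : Fin 5) ≠ 0 := by decide
    obtain ⟨d, hd⟩ := hDiag hF 5 (fun k : Fin 5 => if (k : ℕ) < 4 then ω else ω ^ 2)
      (fun k => by
        show (if (k : ℕ) < 4 then ω else ω ^ 2) ^ 3 = 1
        split_ifs
        · exact hω3
        · rw [← pow_mul, mul_comm, pow_mul, hω3, one_pow])
      (by
        rw [Fin.prod_univ_five]
        simp
        linear_combination (ω ^ 3 + 1) * hω3)
    have hne : (4 : Fin 5) ≠ finRotate 5 4 := by rw [r4]; exact ne40
    obtain ⟨p, hp⟩ := hDiag hF 5 (pairVec ω (4 : Fin 5) (finRotate 5 4))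
      (fun k => q2g_pair_pow ω hω3 _ _ k) (q2g_pair_prod ω hω3 _ _ hne)
    obtain ⟨e3, e4⟩ := q2g_core hF (by omega) t d ht _ hd ω
      (fun k hk => by show (if (k : ℕ) < 4 then ω else ω ^ 2) = ω; rw [if_pos hk])
      (fun k => by
        show (if (k : ℕ) < 4 then ω else ω ^ 2) ^ 3 = 1
        split_ifs
        · exact hω3
        · rw [← pow_mul, mul_comm, pow_mul, hω3, one_pow])
    have hcd := q2g_cyc_diag c hc (fun k : Fin 5 => if (k : ℕ) < 4 then ω else ω ^ 2)
      (fun k : Fin 5 => if k = 0 then ω ^ 2 else ω) (fun i => by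
        show (if finRotate 5 i = 0 then ω ^ 2 else ω) = if (i : ℕ) < 4 then ω else ω ^ 2
        by_cases h : i = 4
        · rw [if_pos ((r0 i).mpr h), if_neg (fun h' => (l4 i).mp h' h)]
        · rw [if_neg (fun h' => h ((r0 i).mp h')), if_pos ((l4 i).mpr h)])
    have hpcd : p * (c * d) = d * c := by
      apply Cfsg.Agent.Lib.Helper13.su_ext
      show mat p * (mat c * mat d) = mat d * mat c
      rw [hp, hd, hcd, ← Matrix.mul_assoc, Matrix.diagonal_mul_diagonal]
      congr 2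
      funext k
      show pairVec ω (4 : Fin 5) (finRotate 5 4) k * (if k = 0 then ω ^ 2 else ω) =
        if (k : ℕ) < 4 then ω else ω ^ 2
      unfold pairVec
      rw [r4]
      by_cases h : k = 4
      · rw [if_pos h, if_neg (by rw [h]; exact ne40), if_neg (fun h' => (l4 k).mp h' h)]
        ring
      · rw [if_neg h, if_pos ((l4 k).mpr h)]
        by_cases h0 : k = 0
        · rw [if_pos h0, if_pos h0]
          linear_combination hω4
        · rw [if_neg h0, if_neg h0, one_mul]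
    refine ⟨t * d, c, ω, fun K ha hb => ?_⟩
    have htK : t ∈ K := by rw [← e3]; exact K.pow_mem ha 3
    have hdK : d ∈ K := by rw [← e4]; exact K.pow_mem ha 4
    have hpK : p ∈ K := by
      have : p = d * c * (c * d)⁻¹ := eq_mul_inv_of_mul_eq hpcd
      rw [this]
      exact K.mul_mem (K.mul_mem hdK hb) (K.inv_mem (K.mul_mem hb hdK))
    exact ⟨hω1, hω3, ⟨t, htK, ht⟩, ⟨c, hb, hc⟩, ⟨4, p, hpK, hp⟩⟩

end Cfsg.Agent.Lib.Helper68.SUG
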